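-- Team project OTS (S5972), package [OW]: orthogonal Wall theorem for elements of odd order
-- (helper27, second seat).
import Mathlib
import Cfsg.Agent.Lib.Helper27.OTS.OWCore
import Cfsg.Agent.Lib.Helper40.OTS.Defs
import Cfsg.Agent.S0750

set_option autoImplicit false
set_option linter.unusedSectionVars false
open Matrix

namespace Cfsg.Agent.Lib.Helper27.OTS

universe u

/-- [OW] -/
theorem pkgOW : Cfsg.Agent.Lib.Helper40.OTS.PkgOW.{u} := by
  intro F _ _ ι _ _ Q h2F hnd x y k hko hk hxk hyk hxQ hyQ hc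
  classical
  -- the Gram matrix
  obtain ⟨M, hMdef⟩ : ∃ M : Matrix ι ι F,
      M = LinearMap.BilinForm.toMatrix' (QuadraticMap.polarBilin Q) := ⟨_, rfl⟩
  have hB : ∀ u v : ι → F, QuadraticMap.polar Q u v = u ⬝ᵥ M *ᵥ v := by
    intro u v
    rw [hMdef, ← Matrix.toBilin'_apply', Matrix.toBilin'_toMatrix',
      QuadraticMap.polarBilin_apply_apply]
  have hdet : IsUnit M.det := by
    rw [hMdef, isUnit_iff_ne_zero, ← Matrix.nondegenerate_iff_det_ne_zero,
      LinearMap.BilinForm.nondegenerate_toMatrix'_iff]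
    exact hnd
  have h1 : M * M⁻¹ = 1 := Matrix.mul_nonsing_inv M hdet
  have h2 : M⁻¹ * M = 1 := Matrix.nonsing_inv_mul M hdet
  have hM : Mᵀ = M := by
    ext i j
    rw [Matrix.transpose_apply, hMdef, LinearMap.BilinForm.toMatrix'_apply,
      LinearMap.BilinForm.toMatrix'_apply, QuadraticMap.polarBilin_apply_apply,
      QuadraticMap.polarBilin_apply_apply, QuadraticMap.polar_comm]
  have hMi : M⁻¹ᵀ = M⁻¹ := by rw [Matrix.transpose_nonsing_inv, hM]
  have hadjform : ∀ (a : Matrix ι ι F) (u v : ι → F),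
      QuadraticMap.polar Q (a *ᵥ u) v = QuadraticMap.polar Q u (adjM M M⁻¹ a *ᵥ v) := by
    intro a u v
    rw [hB, hB]
    exact adjM_form h1 a u v
  have hnondeg : ∀ v : ι → F, (∀ w, QuadraticMap.polar Q w v = 0) → v = 0 := by
    intro v hv
    have h0 : M *ᵥ v = 0 := by
      apply dotProduct_eq
      intro w
      rw [dotProduct_comm, ← hB, hv, zero_dotProduct]
    calc v = (M⁻¹ * M) *ᵥ v := by rw [h2, Matrix.one_mulVec]
      _ = 0 := by rw [← Matrix.mulVec_mulVec, h0, Matrix.mulVec_zero]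
  have hQB : ∀ v : ι → F, QuadraticMap.polar Q v v = 2 * Q v := by
    intro v
    rw [QuadraticMap.polar_self, two_smul, two_mul]
  have hiso : ∀ a : Matrix ι ι F, (∀ v, Q (a *ᵥ v) = Q v) → adjM M M⁻¹ a * a = 1 := by
    intro a ha
    have hpol : ∀ u v, QuadraticMap.polar Q (a *ᵥ u) (a *ᵥ v) = QuadraticMap.polar Q u v := by
      intro u v
      unfold QuadraticMap.polar
      rw [← Matrix.mulVec_add, ha, ha, ha]
    apply Matrix.toLin'.injective
    apply LinearMap.ext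
    intro v
    rw [Matrix.toLin'_apply, Matrix.toLin'_one, LinearMap.id_apply]
    have h0 : (adjM M M⁻¹ a * a) *ᵥ v - v = 0 := by
      apply hnondeg
      intro w
      rw [QuadraticMap.polar_sub_right, ← Matrix.mulVec_mulVec, ← hadjform, hpol, sub_self]
    exact sub_eq_zero.mp h0
  have hx := hiso x hxQ
  have hy := hiso y hyQ
  have hy' : y * adjM M M⁻¹ y = 1 := mul_eq_one_comm.mp hy
  -- conjugacy in the general linear group
  have hsx := Cfsg.Agent.Lib.Helper40.SympWall.isSemisimple_of_pow_eq_one' x k hk hxk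
  have hsy := Cfsg.Agent.Lib.Helper40.SympWall.isSemisimple_of_pow_eq_one' y k hk hyk
  obtain ⟨e, he⟩ := Cfsg.Agent.Lib.Helper40.exists_equiv_of_charpoly_eq
    (Module.finrank F (ι → F)) (ι → F) (ι → F)
    (Matrix.toLin' x) (Matrix.toLin' y) rfl hsx hsy
    (by rw [Matrix.charpoly_toLin', Matrix.charpoly_toLin', hc])
  obtain ⟨P, hP⟩ : ∃ P : Matrix ι ι F,
      P = LinearMap.toMatrix' (e : (ι → F) →ₗ[F] (ι → F)) := ⟨_, rfl⟩
  obtain ⟨P', hP'⟩ : ∃ P' : Matrix ι ι F,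
      P' = LinearMap.toMatrix' (e.symm : (ι → F) →ₗ[F] (ι → F)) := ⟨_, rfl⟩
  have hPP' : P * P' = 1 := by
    rw [hP, hP', ← LinearMap.toMatrix'_comp]
    simp
  have hP'P : P' * P = 1 := by
    rw [hP, hP', ← LinearMap.toMatrix'_comp]
    simp
  have hPx : P * x = y * P := by
    apply Matrix.toLin'.injective
    apply LinearMap.ext
    intro v
    rw [hP]
    simp only [Matrix.toLin'_mul, Matrix.toLin'_toMatrix', LinearMap.comp_apply]
    exact he v
  -- the algebraic core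
  obtain ⟨φ, ε, ep, wu, hφφ, hφx, hφε, hεε, hτε, hεx, hsum, hxep, hφw⟩ :=
    wall_core M M⁻¹ h1 h2 hM hMi x y P P' k hko hk h2F hx hy hxk hPP' hP'P hPx
  have hεep : ε * ep = 0 := by
    have : ep = 1 - ε := by rw [← hsum]; abel
    rw [this, Matrix.mul_sub, Matrix.mul_one, hεε, sub_self]
  -- `φ * (wu * (x - 1) * P') = y - 1`
  have hε1 : ε * (x - 1) = x - 1 := by
    have e1 : (x - 1) * ε = x - 1 := by
      have : ε = 1 - ep := by rw [← hsum]; abel
      rw [this, Matrix.mul_sub, Matrix.mul_one, Matrix.sub_mul, hxep, Matrix.one_mul, sub_self,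
        sub_zero]
    have e1' : x * ε - ε = (x - 1) * ε := by rw [Matrix.sub_mul, Matrix.one_mul]
    rw [Matrix.mul_sub, Matrix.mul_one, hεx, e1', e1]
  have hkey : φ * (wu * (x - 1) * P') = y - 1 := by
    calc φ * (wu * (x - 1) * P') = (φ * wu) * (x - 1) * P' := by simp only [Matrix.mul_assoc]
      _ = P * (ε * (x - 1)) * P' := by rw [hφw]; simp only [Matrix.mul_assoc]
      _ = (P * x - P) * P' := by rw [hε1, Matrix.mul_sub, Matrix.mul_one]
      _ = y * (P * P') - P * P' := by rw [hPx, Matrix.sub_mul, Matrix.mul_assoc]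
      _ = y - 1 := by rw [hPP', Matrix.mul_one]
  -- the isometry on the range of `ε`
  obtain ⟨X, hX⟩ : ∃ X : Submodule F (ι → F), X = LinearMap.range (Matrix.toLin' ε) := ⟨_, rfl⟩
  have hXε : ∀ v ∈ X, ε *ᵥ v = v := by
    intro v hv
    rw [hX] at hv
    obtain ⟨t, rfl⟩ := hv
    rw [Matrix.toLin'_apply, Matrix.mulVec_mulVec, hεε]
  have hεX : ∀ t : ι → F, ε *ᵥ t ∈ X := by
    intro t
    rw [hX]
    exact ⟨t, Matrix.toLin'_apply ε t⟩
  have hφpol : ∀ u v : ι → F,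
      QuadraticMap.polar Q (φ *ᵥ u) (φ *ᵥ v) = QuadraticMap.polar Q u (ε *ᵥ v) := by
    intro u v
    rw [hadjform, Matrix.mulVec_mulVec, hφφ]
  obtain ⟨f, hf⟩ : ∃ f : X →ₗ[F] (ι → F), f = (Matrix.toLin' φ).domRestrict X := ⟨_, rfl⟩
  have hfapp : ∀ v : X, f v = φ *ᵥ (v : ι → F) := by
    intro v
    rw [hf, LinearMap.domRestrict_apply, Matrix.toLin'_apply]
  have hinj : Function.Injective f := by
    rw [← LinearMap.ker_eq_bot, LinearMap.ker_eq_bot']
    intro v hv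
    rw [hfapp] at hv
    apply Subtype.ext
    rw [Submodule.coe_zero]
    apply hnondeg
    intro w
    rw [← hXε _ v.2, ← hφpol, hv, QuadraticMap.polar_zero_right]
  have hφQ : ∀ v : X, Q ((LinearEquiv.ofInjective f hinj v : LinearMap.range f) : ι → F) =
      Q (v : ι → F) := by
    intro v
    rw [LinearEquiv.ofInjective_apply, hfapp]
    have e1 := hφpol (v : ι → F) (v : ι → F)
    rw [hXε _ v.2, hQB, hQB] at e1
    exact mul_left_cancel₀ h2F e1
  obtain ⟨G, hGQ, hG⟩ := Cfsg.Agent.S0750.result Q hnd X (LinearMap.range f)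
    (LinearEquiv.ofInjective f hinj) hφQ
  have hGε : ∀ t : ι → F, G (ε *ᵥ t) = φ *ᵥ t := by
    intro t
    have := hG ⟨ε *ᵥ t, hεX t⟩
    rw [LinearEquiv.ofInjective_apply, hfapp] at this
    rw [this, Matrix.mulVec_mulVec, hφε]
  have hGpol : ∀ a b : ι → F, QuadraticMap.polar Q (G a) (G b) = QuadraticMap.polar Q a b := by
    intro a b
    unfold QuadraticMap.polar
    rw [← map_add, hGQ, hGQ, hGQ]
  -- `y` fixes `G (ep v)`
  have hfix : ∀ v : ι → F, y *ᵥ G (ep *ᵥ v) = G (ep *ᵥ v) := by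
    intro v
    have h0 : adjM M M⁻¹ y *ᵥ G (ep *ᵥ v) - G (ep *ᵥ v) = 0 := by
      apply hnondeg
      intro w
      rw [QuadraticMap.polar_sub_right, ← hadjform, ← QuadraticMap.polar_sub_left]
      have e1 : y *ᵥ w - w = φ *ᵥ ((wu * (x - 1) * P') *ᵥ w) := by
        rw [Matrix.mulVec_mulVec, hkey, Matrix.sub_mulVec, Matrix.one_mulVec]
      rw [e1, ← hGε, hGpol, hadjform, hτε, Matrix.mulVec_mulVec, hεep, Matrix.zero_mulVec,
        QuadraticMap.polar_zero_right]
    have h3 : adjM M M⁻¹ y *ᵥ G (ep *ᵥ v) = G (ep *ᵥ v) := sub_eq_zero.mp h0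
    calc y *ᵥ G (ep *ᵥ v) = y *ᵥ (adjM M M⁻¹ y *ᵥ G (ep *ᵥ v)) := by rw [h3]
      _ = G (ep *ᵥ v) := by rw [Matrix.mulVec_mulVec, hy', Matrix.one_mulVec]
  -- the matrices
  obtain ⟨h, hh⟩ : ∃ h : Matrix ι ι F,
      h = LinearMap.toMatrix' (G : (ι → F) →ₗ[F] (ι → F)) := ⟨_, rfl⟩
  obtain ⟨h', hh'⟩ : ∃ h' : Matrix ι ι F,
      h' = LinearMap.toMatrix' (G.symm : (ι → F) →ₗ[F] (ι → F)) := ⟨_, rfl⟩
  have hhv : ∀ v : ι → F, h *ᵥ v = G v := by
    intro v
    rw [← Matrix.toLin'_apply, hh, Matrix.toLin'_toMatrix']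
    rfl
  refine ⟨h, h', ?_, ?_, ?_⟩
  · rw [hh, hh', ← LinearMap.toMatrix'_comp]
    simp
  · intro v
    rw [hhv, hGQ]
  · apply Matrix.toLin'.injective
    apply LinearMap.ext
    intro v
    rw [Matrix.toLin'_apply, Matrix.toLin'_apply, ← Matrix.mulVec_mulVec, ← Matrix.mulVec_mulVec,
      hhv, hhv]
    have hv : v = ε *ᵥ v + ep *ᵥ v := by
      rw [← Matrix.add_mulVec, hsum, Matrix.one_mulVec]
    have e1 : x *ᵥ v = ε *ᵥ (x *ᵥ v) + ep *ᵥ v := by
      nth_rewrite 1 [hv]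
      rw [Matrix.mulVec_add, Matrix.mulVec_mulVec, Matrix.mulVec_mulVec, Matrix.mulVec_mulVec,
        hεx, hxep]
    rw [e1, map_add, hGε]
    nth_rewrite 3 [hv]
    rw [map_add, Matrix.mulVec_add, hGε, hfix, Matrix.mulVec_mulVec, Matrix.mulVec_mulVec, hφx]

end Cfsg.Agent.Lib.Helper27.OTS
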